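import Cfsg.Agent.Lib.Leech.M.Data

set_option autoImplicit false
set_option maxRecDepth 100000
set_option exponentiation.threshold 100000

namespace Cfsg.Agent.Leech.M

open Cfsg Cfsg.Agent.PG Cfsg.Agent.Golay Cfsg.Agent.Leech Equiv
open scoped Pointwise

theorem act1_0 : actB A 1 1 g1M P B 0 6 = true := by decide +kernel
theorem act1_1 : actB A 1 1 g1M P B 6 6 = true := by decide +kernel
theorem act1_2 : actB A 1 1 g1M P B 12 6 = true := by decide +kernel
theorem act1_3 : actB A 1 1 g1M P B 18 6 = true := by decide +kernel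
theorem inv1 : invB A [[gw 1]] B = true := by decide +kernel

theorem acts1 {g : Co0} (hg : IsMat g 1 g1M) : Acts (X P) (bset B) g (gp A 1) :=
  hg.acts hA (by omega) hmem inv1
    (actB_join (n := 18) (actB_join (n := 12) (actB_join (n := 6) act1_0 act1_1) act1_2) act1_3)

end Cfsg.Agent.Leech.M
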