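import Cfsg.Agent.Lib.Leech.M.Data

set_option autoImplicit false
set_option maxRecDepth 100000
set_option exponentiation.threshold 100000

namespace Cfsg.Agent.Leech.M

open Cfsg Cfsg.Agent.PG Cfsg.Agent.Golay Cfsg.Agent.Leech Equiv
open scoped Pointwise

theorem act2_0 : actB A 2 1 g2M P B 0 6 = true := by decide +kernel
theorem act2_1 : actB A 2 1 g2M P B 6 6 = true := by decide +kernel
theorem act2_2 : actB A 2 1 g2M P B 12 6 = true := by decide +kernel
theorem act2_3 : actB A 2 1 g2M P B 18 6 = true := by decide +kernel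
theorem inv2 : invB A [[gw 2]] B = true := by decide +kernel

theorem acts2 {g : Co0} (hg : IsMat g 1 g2M) : Acts (X P) (bset B) g (gp A 2) :=
  hg.acts hA (by omega) hmem inv2
    (actB_join (n := 18) (actB_join (n := 12) (actB_join (n := 6) act2_0 act2_1) act2_2) act2_3)

end Cfsg.Agent.Leech.M
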