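import Cfsg.Agent.Lib.Leech.M.Data

set_option autoImplicit false
set_option maxRecDepth 100000
set_option exponentiation.threshold 100000

namespace Cfsg.Agent.Leech.M

open Cfsg Cfsg.Agent.PG Cfsg.Agent.Golay Cfsg.Agent.Leech Equiv
open scoped Pointwise

theorem act3_0 : actB A 3 1 g3M P B 0 6 = true := by decide +kernel
theorem act3_1 : actB A 3 1 g3M P B 6 6 = true := by decide +kernel
theorem act3_2 : actB A 3 1 g3M P B 12 6 = true := by decide +kernel
theorem act3_3 : actB A 3 1 g3M P B 18 6 = true := by decide +kernel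
theorem inv3 : invB A [[gw 3]] B = true := by decide +kernel

theorem acts3 {g : Co0} (hg : IsMat g 1 g3M) : Acts (X P) (bset B) g (gp A 3) :=
  hg.acts hA (by omega) hmem inv3
    (actB_join (n := 18) (actB_join (n := 12) (actB_join (n := 6) act3_0 act3_1) act3_2) act3_3)

end Cfsg.Agent.Leech.M
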