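import Cfsg.Agent.Lib.Leech.M.Lay

set_option autoImplicit false
set_option maxRecDepth 100000
set_option exponentiation.threshold 100000

namespace Cfsg.Agent.Leech.M

open Cfsg Cfsg.Agent.PG Cfsg.Agent.Golay Cfsg.Agent.Leech Equiv
open scoped Pointwise

theorem trW16 : ∀ x ∈ FL [(mkL U, -16)], ∃ g : Co0, (∀ b ∈ [mkL U], g • b = b) ∧ g • mkL W16 = x := by
  intro x hx
  obtain ⟨a, ha, g, _, h1, h2⟩ := lay.trans (full.mono (cs' := [(U, -16)]) (by simp))
    (gens := [[gw 0], [gw 2], [gw 3]]) (bs := [98281]) (rs := [98283]) (r := 7) (by decide +kernel) x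
    (by rw [fam_eq]; exact hx)
  rw [List.mem_singleton.1 ha, XW16] at h2
  exact ⟨g, by simpa [XU] using h1, h2⟩

theorem cntW16 : (FL [(mkL U, -16)]).ncard = 4600 :=
  (congrArg _ (fam_eq [(U, -16)])).symm.trans
    (lay.ncard (full.mono (by simp)) (l := 15) (by decide +kernel))

theorem dW16 : dotInt (mkL U : V) (mkL W16 : V) = -16 := dot_mkL (by decide +kernel)

theorem trW8 : ∀ x ∈ FL [(mkL U, -8)], ∃ g : Co0, (∀ b ∈ [mkL U], g • b = b) ∧ g • mkL W8 = x := by
  intro x hx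
  obtain ⟨a, ha, g, _, h1, h2⟩ := lay.trans (full.mono (cs' := [(U, -8)]) (by simp))
    (gens := [[gw 0], [gw 2], [gw 3]]) (bs := [98281]) (rs := [176225]) (r := 9) (by decide +kernel) x
    (by rw [fam_eq]; exact hx)
  rw [List.mem_singleton.1 ha, XW8] at h2
  exact ⟨g, by simpa [XU] using h1, h2⟩

theorem cntW8 : (FL [(mkL U, -8)]).ncard = 47104 :=
  (congrArg _ (fam_eq [(U, -8)])).symm.trans
    (lay.ncard (full.mono (by simp)) (l := 15) (by decide +kernel))

theorem dW8 : dotInt (mkL U : V) (mkL W8 : V) = -8 := dot_mkL (by decide +kernel)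

theorem trU2 : ∀ x ∈ FL [(mkL U, 0)], ∃ g : Co0, (∀ b ∈ [mkL U], g • b = b) ∧ g • mkL U2 = x := by
  intro x hx
  obtain ⟨a, ha, g, _, h1, h2⟩ := lay.trans (full.mono (cs' := [(U, 0)]) (by simp))
    (gens := [[gw 0], [gw 2], [gw 3]]) (bs := [98281]) (rs := [98279]) (r := 9) (by decide +kernel) x
    (by rw [fam_eq]; exact hx)
  rw [List.mem_singleton.1 ha, XU2] at h2
  exact ⟨g, by simpa [XU] using h1, h2⟩

theorem cntU2 : (FL [(mkL U, 0)]).ncard = 93150 :=
  (congrArg _ (fam_eq [(U, 0)])).symm.trans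
    (lay.ncard (full.mono (by simp)) (l := 15) (by decide +kernel))

theorem dU2 : dotInt (mkL U : V) (mkL U2 : V) = 0 := dot_mkL (by decide +kernel)

theorem cntu24 : (fam [(u0, 24)]).ncard = 552 :=
  lay.ncard (full.mono (by simp)) (l := 15) (by decide +kernel)

theorem cntu16 : (fam [(u0, 16)]).ncard = 11178 :=
  lay.ncard (full.mono (by simp)) (l := 15) (by decide +kernel)

theorem u0_eq : mkL U + mkL W8 = mkL u0 := mkL_add (by decide +kernel)

end Cfsg.Agent.Leech.M
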